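import Cfsg.Agent.Classical.Symp.Transvection

/-!
The symplectic space over a field with two elements: separation of three functionals, the elements
`x ↦ x + f x a • b + f x b • a`, and the sum of signs of a function with bilinear defect.
-/

set_option autoImplicit false
set_option linter.unusedSectionVars false

namespace CfsgLib.MinIndexSp

open Matrix CfsgLib.Classical.Symp

variable {m : ℕ} {F : Type*} [Field F]

local notation "B" => Cfsg.sympForm m F
local notation "Mat" => Matrix (Fin m ⊕ Fin m) (Fin m ⊕ Fin m) F
local notation "V" => (Fin m ⊕ Fin m → F)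
local notation "G" => Matrix.symplecticGroup (Fin m) F

/-- The standard form as a bilinear form. -/
noncomputable def bform (m : ℕ) (F : Type*) [Field F] : LinearMap.BilinForm F (Fin m ⊕ Fin m → F) :=
  LinearMap.mk₂ F (Cfsg.sympForm m F) form_add_left (fun c x v => by simp [form_smul_left])
    form_add_right (fun c x v => by simp [form_smul_right])

theorem bform_apply (x y : V) : bform m F x y = B x y := rfl

theorem bform_refl : (bform m F).IsRefl := fun _ _ h => form_eq_zero_comm.mp h

theorem bform_nondeg : (bform m F).Nondegenerate := by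
  constructor <;> intro x h
  · exact eq_zero_of_form_eq_zero h
  · exact eq_zero_of_form_eq_zero fun y => form_eq_zero_comm.mp (h y)

/-- Separation of three independent functionals. -/
theorem exists_form_three {a b c : V} (ha : a ≠ 0) (hb : b ∉ Submodule.span F {a})
    (hc : ¬ ∃ s r : F, c = s • a + r • b) (x y z : F) :
    ∃ w, B a w = x ∧ B b w = y ∧ B c w = z := by
  obtain ⟨za, h1a, h1b⟩ := exists_form_eq_eq ha hb 1 0
  obtain ⟨zb, h2a, h2b⟩ := exists_form_eq_eq ha hb 0 1
  obtain ⟨k, hka, hkb, hkc⟩ : ∃ k, B a k = 0 ∧ B b k = 0 ∧ B c k ≠ 0 := by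
    by_contra hne
    push Not at hne
    refine hc ⟨B c za, B c zb, sub_eq_zero.mp (eq_zero_of_form_eq_zero fun w => ?_)⟩
    have h0 := hne (w - B a w • za - B b w • zb)
      (by simp only [form_sub_right, form_smul_right, h1a, h2a]; ring)
      (by simp only [form_sub_right, form_smul_right, h1b, h2b]; ring)
    simp only [form_sub_right, form_smul_right] at h0
    simp only [form_sub_left, form_add_left, form_smul_left]
    linear_combination h0
  refine ⟨x • za + y • zb + ((z - x * B c za - y * B c zb) / B c k) • k, ?_, ?_, ?_⟩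
  · simp only [form_add_right, form_smul_right, h1a, h2a, hka]; ring
  · simp only [form_add_right, form_smul_right, h1b, h2b, hkb]; ring
  · simp only [form_add_right, form_smul_right, div_mul_cancel₀ _ hkc]; ring

/-- The transvection of a vector. -/
noncomputable def tT (v : V) : G := spT v 1

/-- The product of the three transvections on a line. -/
noncomputable def rT (a b : V) : G := tT a * tT b * tT (a + b)

theorem conj_tT (g : G) (v : V) : g * tT v * g⁻¹ = tT ((g : Mat) *ᵥ v) := conj_spT g v 1

theorem conj_rT (g : G) (a b : V) : g * rT a b * g⁻¹ = rT ((g : Mat) *ᵥ a) ((g : Mat) *ᵥ b) := by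
  simp only [rT, ← mulVec_add, ← conj_tT]
  group

section Two

variable [Fintype F] (hF : Fintype.card F = 2)
include hF

theorem zero_or_one (c : F) : c = 0 ∨ c = 1 := by
  classical
  by_contra h
  push Not at h
  have h3 : ({0, 1, c} : Finset F).card ≤ 2 := hF ▸ Finset.card_le_univ _
  simp [h.1.symm, h.2.symm] at h3

theorem two_eq_zero : (2 : F) = 0 := by
  rcases zero_or_one hF (2 : F) with h | h
  · exact h
  · exact absurd (by linear_combination h : (1 : F) = 0) one_ne_zero

theorem ne_zero_iff_eq_one {c : F} : c ≠ 0 ↔ c = 1 :=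
  ⟨(zero_or_one hF c).resolve_left, fun h => h ▸ one_ne_zero⟩

theorem add_self_vec (x : V) : x + x = 0 := by
  funext j; simp [← two_mul, two_eq_zero hF]

theorem vec_add_eq_zero {x y : V} (h : x + y = 0) : x = y := by
  calc x = x + (y + y) := by rw [add_self_vec hF, add_zero]
    _ = y := by rw [← add_assoc, h, zero_add]

theorem form_comm' (x y : V) : B x y = B y x := by
  rw [form_swap x y]
  linear_combination (-B y x) * two_eq_zero hF

theorem mem_span_singleton_two {a x : V} : x ∈ Submodule.span F {a} ↔ x = 0 ∨ x = a := by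
  rw [Submodule.mem_span_singleton]
  constructor
  · rintro ⟨c, rfl⟩; rcases zero_or_one hF c with rfl | rfl <;> simp
  · rintro (rfl | rfl)
    · exact ⟨0, by simp⟩
    · exact ⟨1, by simp⟩

theorem exists_pair {a b : V} (ha : a ≠ 0) (hb0 : b ≠ 0) (hba : b ≠ a) (x y : F) :
    ∃ w, B a w = x ∧ B b w = y :=
  exists_form_eq_eq ha (by rw [mem_span_singleton_two hF]; tauto) x y

theorem exists_triple {a b c : V} (ha : a ≠ 0) (hb0 : b ≠ 0) (hba : b ≠ a) (hc0 : c ≠ 0) (hca : c ≠ a)
    (hcb : c ≠ b) (hcab : c ≠ a + b) (x y z : F) :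
    ∃ w, B a w = x ∧ B b w = y ∧ B c w = z := by
  refine exists_form_three ha (by rw [mem_span_singleton_two hF]; tauto) ?_ x y z
  rintro ⟨s, r, h⟩
  rcases zero_or_one hF s with rfl | rfl <;> rcases zero_or_one hF r with rfl | rfl <;>
    simp at h <;> tauto

theorem tT_mul_self (v : V) : tT v * tT v = 1 := by
  rw [tT, ← spT_add, one_add_one_eq_two, two_eq_zero hF, spT_zero]

theorem tT_zero : tT (0 : V) = 1 := spT_zero_left 1

theorem tT_mulVec (v x : V) : (tT v : Mat) *ᵥ x = x + B x v • v := by
  rw [tT, spT_mulVec, one_mul]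

theorem rT_mulVec {a b : V} (h : B a b = 0) (x : V) :
    (rT a b : Mat) *ᵥ x = x + B x a • b + B x b • a := by
  have h' : B b a = 0 := form_eq_zero_comm.mp h
  rw [rT, mul_mulVec, mul_mulVec, tT_mulVec hF, tT_mulVec hF, tT_mulVec hF]
  simp only [form_add_left, form_add_right, form_smul_left, form_self, h, h', mul_zero, add_zero]
  funext j
  simp only [Pi.add_apply, Pi.smul_apply, smul_eq_mul]
  linear_combination (B x a * a j + B x b * b j) * two_eq_zero hF

theorem rT_zero (a : V) : rT a (0 : V) = 1 := by
  rw [rT, tT_zero hF, mul_one, add_zero, tT_mul_self hF]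

theorem rT_self (a : V) : rT a a = 1 := by
  rw [rT, add_self_vec hF, tT_zero hF, mul_one, tT_mul_self hF]

theorem rT_symm {a b : V} (h : B a b = 0) : rT a b = rT b a :=
  symp_ext fun x => by rw [rT_mulVec hF h, rT_mulVec hF (form_eq_zero_comm.mp h)]; abel

theorem rT_mul {a w w' : V} (h : B a w = 0) (h' : B a w' = 0) :
    rT a w * rT a w' = rT a (w + w') * spT a (B w w') := by
  have hs : B a (w + w') = 0 := by rw [form_add_right, h, h', add_zero]
  have h1 : B w' a = 0 := form_eq_zero_comm.mp h'
  refine symp_ext fun x => ?_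
  rw [mul_mulVec, mul_mulVec, rT_mulVec hF h', rT_mulVec hF h, spT_mulVec, rT_mulVec hF hs]
  simp only [form_add_left, form_add_right, form_smul_left, form_self, h, h', h1, mul_zero, add_zero]
  rw [form_comm' hF w' w]
  funext j
  simp only [Pi.add_apply, Pi.smul_apply, smul_eq_mul]
  ring

theorem rT_commute {a w w' : V} (h : B a w = 0) (h' : B a w' = 0) :
    rT a w * rT a w' = rT a w' * rT a w := by
  rw [rT_mul hF h h', rT_mul hF h' h, add_comm, form_comm' hF]

theorem tT_rT_commute {a w : V} (h : B a w = 0) : tT a * rT a w = rT a w * tT a := by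
  have h' : B w a = 0 := form_eq_zero_comm.mp h
  have e : rT a w * tT a * (rT a w)⁻¹ = tT a := by
    rw [conj_tT, rT_mulVec hF h, form_self, h, zero_smul, zero_smul, add_zero, add_zero]
  exact (mul_inv_eq_iff_eq_mul.mp e).symm

end Two

/-- Zero count of a function with bilinear defect on a finite elementary abelian 2-group. -/
theorem card_zeros_bound {W : Type*} [AddCommGroup W] [Fintype W] [DecidableEq W]
    (q : W → ZMod 2) (b : W → W → ZMod 2) (hq : ∀ x y, q (x + y) = q x + q y + b x y)
    (hb0 : ∀ x, b x x = 0) (hbl : ∀ u x y, b (x + y) u = b x u + b y u) (R : Finset W)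
    (hR : ∀ u, u ∈ R ↔ ∀ x, b x u = 0) (hqR : ∀ u ∈ R, q u = 0) (N : ℕ)
    (hN : Fintype.card W * R.card = N ^ 2) :
    2 * (Finset.univ.filter fun x => q x = 0).card = Fintype.card W + N ∨
      2 * (Finset.univ.filter fun x => q x = 0).card + N = Fintype.card W := by
  classical
  let σ : ZMod 2 → ℤ := fun c => if c = 0 then 1 else -1
  have hσ : ∀ c d, σ (c + d) = σ c * σ d := by decide
  have h2 : ∀ x : W, q (x + x) = 0 := fun x => by
    rw [hq, hb0, add_zero]; exact CharTwo.add_self_eq_zero _
  set S : ℤ := ∑ x, σ (q x) with hS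
  have inner : ∀ u, (∑ x, σ (b x u)) = if u ∈ R then (Fintype.card W : ℤ) else 0 := by
    intro u
    split_ifs with hu
    · rw [Finset.sum_congr rfl fun x _ => by rw [(hR u).mp hu x]]
      simp [σ]
    · rw [hR] at hu; push Not at hu
      obtain ⟨x0, hx0⟩ := hu
      have h1 : b x0 u = 1 := by revert hx0; generalize b x0 u = c; revert c; decide
      have := Equiv.sum_comp (Equiv.addLeft x0) fun x => σ (b x u)
      simp only [Equiv.coe_addLeft, hbl, hσ, h1] at this
      rw [← Finset.mul_sum] at this
      have e : σ 1 = -1 := by decide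
      rw [e] at this
      linarith
  have sq : S * S = (Fintype.card W * R.card : ℕ) := by
    rw [hS, Finset.sum_mul_sum]
    calc ∑ x, ∑ y, σ (q x) * σ (q y) = ∑ x, ∑ u, σ (q x) * σ (q (x + u)) :=
          Finset.sum_congr rfl fun x _ => (Equiv.sum_comp (Equiv.addLeft x) fun y => σ (q x) * σ (q y)).symm
      _ = ∑ x, ∑ u, σ (q u) * σ (b x u) := by
          refine Finset.sum_congr rfl fun x _ => Finset.sum_congr rfl fun u _ => ?_
          rw [hq, ← hσ, ← hσ]
          congr 1
          have := CharTwo.add_self_eq_zero (q x)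
          linear_combination this
      _ = ∑ u, σ (q u) * ∑ x, σ (b x u) := by
          rw [Finset.sum_comm]; simp only [Finset.mul_sum]
      _ = _ := by
          simp only [inner, mul_ite, mul_zero, Finset.sum_ite_mem, Finset.univ_inter]
          rw [Finset.sum_congr rfl fun u hu => by rw [hqR u hu]]
          simp [σ, mul_comm]
  have hsum : S = 2 * ((Finset.univ.filter fun x => q x = 0).card : ℤ) - Fintype.card W := by
    rw [hS]
    have : ∀ x, σ (q x) = 2 * (if q x = 0 then 1 else 0 : ℤ) - 1 := fun x => by
      simp only [σ]; split_ifs <;> ring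
    simp only [this, Finset.sum_sub_distrib, ← Finset.mul_sum, Finset.sum_boole]
    simp
  have key : (S - N) * (S + N) = 0 := by
    have : S * S = ((N ^ 2 : ℕ) : ℤ) := by rw [← hN]; exact sq
    push_cast at this
    linear_combination this
  rcases mul_eq_zero.mp key with h | h
  · left; omega
  · right; omega

end CfsgLib.MinIndexSp
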