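import Cfsg.Agent.MinIndexSp.TwoOrbit
import Cfsg.Agent.Classical.Symp.Simple

/-!
The minimal index of a proper subgroup of `Sp_2m(2)`, `m ≥ 3`, and the minus orthogonal group attaining it.
-/

set_option autoImplicit false
set_option linter.unusedSectionVars false

namespace CfsgLib.MinIndexSp

open Matrix CfsgLib.Classical.Symp

variable {m : ℕ} {F : Type*} [Field F] [Fintype F]

local notation "B" => Cfsg.sympForm m F
local notation "Mat" => Matrix (Fin m ⊕ Fin m) (Fin m ⊕ Fin m) F
local notation "V" => (Fin m ⊕ Fin m → F)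
local notation "G" => Matrix.symplecticGroup (Fin m) F

/-- The two element field read in `ZMod 2`. -/
noncomputable def toZ (c : F) : ZMod 2 := by classical exact if c = 0 then 0 else 1

theorem toZ_zero : toZ (0 : F) = 0 := by simp [toZ]

theorem toZ_one : toZ (1 : F) = 1 := by simp [toZ]

theorem toZ_eq_zero {c : F} : toZ c = 0 ↔ c = 0 := by
  simp only [toZ]; split_ifs with h <;> simp [h]

section Arith

variable (hF : Fintype.card F = 2)
include hF

theorem toZ_add (a b : F) : toZ (a + b) = toZ a + toZ b := by
  rcases zero_or_one hF a with rfl | rfl <;> rcases zero_or_one hF b with rfl | rfl <;>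
    simp [toZ_zero, toZ_one, one_add_one_eq_two, two_eq_zero hF] <;> decide

theorem toZ_mul (a b : F) : toZ (a * b) = toZ a * toZ b := by
  rcases zero_or_one hF a with rfl | rfl <;> simp [toZ_zero, toZ_one]

theorem toZ_inj {a b : F} (h : toZ a = toZ b) : a = b := by
  rcases zero_or_one hF a with rfl | rfl <;> rcases zero_or_one hF b with rfl | rfl <;>
    simp_all [toZ_zero, toZ_one]

theorem toZ_sum {ι : Type*} (s : Finset ι) (f : ι → F) : toZ (∑ i ∈ s, f i) = ∑ i ∈ s, toZ (f i) := by
  classical
  induction s using Finset.induction with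
  | empty => simp [toZ_zero]
  | insert a s ha ih => rw [Finset.sum_insert ha, Finset.sum_insert ha, toZ_add hF, ih]

end Arith

section Action

variable {X : Type*} [MulAction (Matrix.symplecticGroup (Fin m) F) X]

/-- Whether the element of `w` moves `y`. -/
noncomputable def qf (v : V) (y : X) (w : V) : ZMod 2 := by classical exact if rT v w • y = y then 0 else 1

/-- Whether the transvection of `v` moves `y`. -/
noncomputable def mv (v : V) (y : X) : ZMod 2 := by classical exact if tT v • y = y then 0 else 1

theorem qf_add (hF : Fintype.card F = 2) {v : V} {y : X}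
    (hall : ∀ w, B v w = 0 → rT v w • y = y ∨ rT v w • y = tT v • y) {w w' : V} (hw : B v w = 0)
    (hw' : B v w' = 0) : qf v y (w + w') = qf v y w + qf v y w' + mv v y * toZ (B w w') := by
  classical
  have hs : B v (w + w') = 0 := by rw [form_add_right, hw, hw', add_zero]
  by_cases ht : tT v • y = y
  · have h0 : ∀ u, B v u = 0 → qf v y u = 0 := fun u hu => by
      simp only [qf]; rw [if_pos]; rcases hall u hu with h | h
      · exact h
      · rw [h, ht]
    simp [h0 _ hw, h0 _ hw', h0 _ hs, mv, ht]
  · let tp : ZMod 2 → X := fun e => if e = 0 then y else tT v • y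
    have tp0 : ∀ u, B v u = 0 → rT v u • y = tp (qf v y u) := fun u hu => by
      simp only [qf, tp]; by_cases h : rT v u • y = y
      · simp [h]
      · simp [h, (hall u hu).resolve_left h]
    have step : ∀ u e, B v u = 0 → rT v u • tp e = tp (qf v y u + e) := by
      intro u e hu
      have hz : ∀ e : ZMod 2, tT v • tp e = tp (1 + e) := by
        intro e
        rcases (by revert e; decide : e = 0 ∨ e = 1) with rfl | rfl
        · simp [tp]
        · simp [tp, tT_smul_smul hF, show (1 : ZMod 2) + 1 = 0 from rfl]
      rcases (by revert e; decide : e = 0 ∨ e = 1) with rfl | rfl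
      · rw [add_zero, ← tp0 u hu]; simp [tp]
      · have h1 : tp 1 = tT v • y := by simp [tp]
        rw [h1, ← tT_rT_smul hF hu, tp0 u hu, hz, add_comm]
    have hc : spT v (B w w') • y = tp (toZ (B w w')) := by
      rcases zero_or_one hF (B w w') with h | h <;> rw [h]
      · simp [toZ_zero, spT_zero, tp]
      · simp [toZ_one, tp, tT]
    have e : tp (qf v y (w + w')) = tp (qf v y w + qf v y w' + toZ (B w w')) := by
      rw [add_assoc, ← step w _ hw, ← step w' _ hw', ← hc, ← tp0 _ hs, smul_smul, smul_smul,
        rT_mul hF hw hw', mul_assoc (rT v (w + w')), ← spT_add, ← two_mul, two_eq_zero hF, zero_mul, spT_zero,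
        mul_one]
    have inj : Function.Injective tp := by
      intro a b h
      have hz : ∀ e : ZMod 2, e = 0 ∨ e = 1 := by decide
      rcases hz a with rfl | rfl <;> rcases hz b with rfl | rfl <;> first | rfl | (simp [tp] at h)
      · exact absurd h.symm ht
      · exact absurd h ht
    simp [inj e, mv, ht]

theorem qf_eq_zero {v w : V} {y : X} : qf v y w = 0 ↔ rT v w • y = y := by
  simp only [qf]; split_ifs with h <;> simp [h]

theorem mv_eq_zero {v : V} {y : X} : mv v y = 0 ↔ tT v • y = y := by
  simp only [mv]; split_ifs with h <;> simp [h]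

theorem mv_ne_zero {v : V} {y : X} (h : tT v • y ≠ y) : mv v y = 1 := by
  simp only [mv]; rw [if_neg h]

variable [Finite X] (hF : Fintype.card F = 2)
include hF

theorem rT_smul_mem (hm : 3 ≤ m) (hX : Nat.card X < 2 ^ (m - 1) * (2 ^ m - 1)) {v : V} (hv : v ≠ 0)
    (hne : ∃ y : X, tT v • y ≠ y) (x : X) {w : V} (hw : B v w = 0) :
    rT v w • x = x ∨ rT v w • x = tT v • x := by
  classical
  have := Fintype.ofFinite X
  have hspan : ∀ z : X, (∀ a ∈ aSet hF v z, a = 0 ∨ a = v) → ∀ u, B v u = 0 → u ∈ kSet hF v z := by
    intro z hz u hu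
    rw [← LinearMap.BilinForm.orthogonal_orthogonal bform_nondeg bform_refl (kSet hF v z),
      LinearMap.BilinForm.mem_orthogonal_iff]
    intro a ha
    rcases hz a ha with rfl | rfl
    · exact form_zero_left u
    · exact hu
  by_cases htriv : ∀ a ∈ aSet hF v x, a = 0 ∨ a = v
  · exact (hspan x htriv w hw).2
  exfalso
  push Not at htriv
  obtain ⟨a, ha, ha0, hav⟩ := htriv
  obtain ⟨htx, hA⟩ := aSet_dichotomy hF hm hX hv x ha ha0 hav
  obtain ⟨y, hy⟩ := hne
  have hmoved : ∀ z : X, tT v • z ≠ z → ∀ a ∈ aSet hF v z, a = 0 ∨ a = v := by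
    intro z hz a' ha'
    by_contra hne
    push Not at hne
    exact hz (aSet_dichotomy hF hm hX hv z ha' hne.1 hne.2).1
  have hally : ∀ u, B v u = 0 → rT v u • y = y ∨ rT v u • y = tT v • y :=
    fun u hu => (hspan y (hmoved y hy) u hu).2
  -- the class of `x` is fixed by the transvection
  have hK : Nat.card (kSet hF v x) = 2 := by
    have e : kSet hF v x = Submodule.span F {v} := by
      rw [← LinearMap.BilinForm.orthogonal_orthogonal bform_nondeg bform_refl (kSet hF v x)]
      exact (congrArg _ hA).trans (LinearMap.BilinForm.orthogonal_orthogonal bform_nondeg bform_refl _)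
    rw [e, Module.natCard_eq_pow_finrank (K := F), finrank_span_singleton hv, Nat.card_eq_fintype_card, hF]
    rfl
  have h1 := (card_fibre_bound hF hv x).1
  rw [hK] at h1
  -- the zeros of the sign function of `y`
  let W := (bform m F).orthogonal (Submodule.span F {v})
  have hW : ∀ u : V, u ∈ W ↔ B v u = 0 := fun u => by
    refine ⟨fun h => LinearMap.BilinForm.mem_orthogonal_iff.mp h v (Submodule.mem_span_singleton_self v),
      fun h => LinearMap.BilinForm.mem_orthogonal_iff.mpr fun n hn => ?_⟩
    rcases (mem_span_singleton_two hF).mp hn with rfl | rfl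
    · exact form_zero_left u
    · exact h
  have hWc : Fintype.card W * 2 = 2 ^ (2 * m) := by
    rw [← card_perp hF hv, ← Nat.card_eq_fintype_card]
    exact congrArg (· * 2) (Nat.card_congr (Equiv.subtypeEquivRight hW))
  let v' : W := ⟨v, (hW v).mpr (form_self v)⟩
  have hq : ∀ p r : W, qf v y (p + r).1 = qf v y p.1 + qf v y r.1 + toZ (B p.1 r.1) := fun p r => by
    rw [Submodule.coe_add, qf_add hF hally ((hW _).mp p.2) ((hW _).mp r.2), mv_ne_zero hy, one_mul]
  have hz := card_zeros_bound (fun p : W => qf v y p.1) (fun p r => toZ (B p.1 r.1)) hq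
    (fun p => by rw [form_self, toZ_zero]) (fun u p r => by rw [Submodule.coe_add, form_add_left, toZ_add hF])
    {0, v'} (fun u => by
      constructor
      · intro hu p
        rcases Finset.mem_insert.mp hu with rfl | hu
        · simp [form_zero_right, toZ_zero]
        · rw [Finset.mem_singleton.mp hu, form_comm' hF]; simp [(hW p.1).mp p.2, toZ_zero, v']
      · intro h
        rw [Finset.mem_insert, Finset.mem_singleton]
        by_contra hne
        push Not at hne
        obtain ⟨z, z1, z2⟩ := exists_pair hF hv (fun e => hne.1 (Subtype.ext e)) (fun e => hne.2 (Subtype.ext e)) 0 1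
        have := toZ_eq_zero.mp (h ⟨z, (hW z).mpr z1⟩)
        rw [form_comm' hF, z2] at this
        exact one_ne_zero this)
    (fun u hu => by
      rcases Finset.mem_insert.mp hu with rfl | hu
      · simp [qf_eq_zero, rT_zero hF]
      · rw [Finset.mem_singleton.mp hu]; simp [qf_eq_zero, v', rT_self hF])
    (2 ^ m) (by
      rw [Finset.card_pair (fun e => hv (congrArg Subtype.val e).symm), hWc, ← pow_mul, mul_comm])
  set Z := Finset.univ.filter fun p : W => qf v y p.1 = 0 with hZ
  -- they embed in the moved points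
  have hpush : ∀ (z : W) (u : V), B v u = 0 → qf v y z.1 = 0 →
      qf v (tT z.1 • y) u = qf v y u + toZ (B u z.1) := by
    intro z u hu hz0
    have hvz := (hW _).mp z.2
    have hfix : (tT z.1 : Mat) *ᵥ v = v := by rw [tT_mulVec hF, hvz, zero_smul, add_zero]
    have hinv : (tT z.1 : G)⁻¹ = tT z.1 := inv_eq_of_mul_eq_one_right (tT_mul_self hF _)
    have e : rT v u * tT z.1 = tT z.1 * rT v ((tT z.1 : Mat) *ᵥ u) := by
      have := conj_rT (tT z.1) v u
      rw [hfix, hinv] at this
      rw [← this, ← mul_assoc, ← mul_assoc, tT_mul_self hF, one_mul]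
    have e2 : qf v (tT z.1 • y) u = qf v y ((tT z.1 : Mat) *ᵥ u) := by
      simp only [qf, smul_smul, e]
      simp only [← smul_smul, smul_left_cancel_iff]
    rw [e2, tT_mulVec hF]
    rcases zero_or_one hF (B u z.1) with h | h <;> rw [h]
    · simp [toZ_zero]
    · rw [one_smul, qf_add hF hally hu hvz, hz0, mv_ne_zero hy, h, add_zero, one_mul]
  let M : Finset X := Finset.univ.filter fun z => tT v • z ≠ z
  have hM : Z.card ≤ M.card := by
    refine Finset.card_le_card_of_injOn (fun p => tT p.1 • y) (fun p hp => ?_) (fun p hp r hr heq => ?_)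
    · refine Finset.mem_filter.mpr ⟨Finset.mem_univ _, ?_⟩
      simp only [smul_smul, tT]
      rw [spT_commute ((hW _).mp p.2), ← smul_smul]
      exact fun e => hy (smul_left_cancel _ e)
    · simp only [hZ, Finset.coe_filter, Finset.mem_univ, true_and, Set.mem_ofPred_eq] at hp hr
      have hfun : ∀ u, B v u = 0 → B u p.1 = B u r.1 := fun u hu => by
        have h := congrArg (fun z => qf v z u) heq
        simp only [hpush p u hu hp, hpush r u hu hr, add_right_inj] at h
        exact toZ_inj hF h
      by_contra hne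
      by_cases hrv : r.1 = p.1 + v
      · apply hy
        have hpv : B v p.1 = 0 := (hW _).mp p.2
        have e : tT r.1 = tT p.1 * tT v * rT v p.1 := by
          rw [hrv, add_comm, rT]
          simp only [← mul_assoc]
          rw [mul_assoc (tT p.1) (tT v) (tT v), tT_mul_self hF, mul_one, tT_mul_self hF, one_mul]
        have h := heq
        simp only [e, mul_smul, qf_eq_zero.mp hp, smul_left_cancel_iff] at h
        exact h.symm
      · have h0 : p.1 + r.1 ≠ 0 := fun e => hne (Subtype.ext (vec_add_eq_zero hF e))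
        have hv' : p.1 + r.1 ≠ v := fun e => hrv (by rw [← e, ← add_assoc, add_self_vec hF, zero_add])
        obtain ⟨u, u1, u2⟩ := exists_pair hF hv h0 hv' 0 1
        rw [form_comm' hF, form_add_right, hfun u u1, ← two_mul, two_eq_zero hF, zero_mul] at u2
        exact zero_ne_one u2
  let O : Finset X := Finset.univ.filter fun z => aSet hF v z = aSet hF v x
  have hO : O.card = Nat.card {z : X // aSet hF v z = aSet hF v x} := by
    rw [Nat.card_eq_fintype_card, Fintype.card_subtype]
  rw [← hO] at h1
  have hdisj : Disjoint O M := Finset.disjoint_left.mpr fun z hz hz' => by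
    rcases hmoved z (Finset.mem_filter.mp hz').2 a ((Finset.mem_filter.mp hz).2.symm ▸ ha) with h | h
    · exact ha0 h
    · exact hav h
  have h2 : O.card + M.card ≤ Nat.card X := by
    rw [← Finset.card_union_of_disjoint hdisj, Nat.card_eq_fintype_card]; exact Finset.card_le_univ _
  have e : 2 ^ (2 * m) = 2 * (2 ^ (m - 1) * 2 ^ m) := by
    rw [← pow_add, ← pow_succ']; congr 1; omega
  have e5 : 2 ^ (m - 1) * (2 ^ m - 1) + 2 ^ (m - 1) = 2 ^ (m - 1) * 2 ^ m := by
    rw [← Nat.mul_succ]; congr 1; have := Nat.one_le_two_pow (n := m); omega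
  have e6 : 2 ^ m = 2 * 2 ^ (m - 1) := by rw [← pow_succ']; congr 1; omega
  omega

set_option maxHeartbeats 1000000 in
theorem card_le_one_of_small (hm : 3 ≤ m) [MulAction.IsPretransitive G X]
    (hX : Nat.card X < 2 ^ (m - 1) * (2 ^ m - 1)) : Subsingleton X := by
  classical
  refine ⟨fun x x' => ?_⟩
  -- it suffices that all transvections act trivially
  suffices hall : ∀ v : V, tT v • x = x by
    obtain ⟨g, rfl⟩ := MulAction.exists_smul_eq G x x'
    symm
    refine symp_induction (P := fun g => g • x = x) (one_smul _ x) (fun v c => ?_)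
      (fun a b ha hb => by rw [mul_smul, hb, ha]) g
    rcases spT_smul_cases hF v c x with h | h
    · exact h
    · rw [h, hall v]
  by_contra hcon
  push Not at hcon
  obtain ⟨v1, hv1⟩ := hcon
  have hne : ∀ v : V, v ≠ 0 → ∃ y : X, tT v • y ≠ y := by
    intro v hv
    have hv10 : v1 ≠ 0 := fun e => hv1 (by rw [e, tT_zero hF, one_smul])
    obtain ⟨g, hg⟩ := exists_symp_mulVec_eq hv10 hv
    refine ⟨g • x, ?_⟩
    rw [← hg, ← conj_tT, mul_smul, mul_smul, inv_smul_smul]
    exact fun e => hv1 (smul_left_cancel _ e)
  have hR : ∀ v : V, v ≠ 0 → ∀ w, B v w = 0 → rT v w • x = x ∨ rT v w • x = tT v • x :=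
    fun v hv w hw => rT_smul_mem hF hm hX hv (hne v hv) x hw
  -- `mv` is additive on orthogonal pairs
  have hsum : ∀ a b : V, a ≠ 0 → b ≠ 0 → b ≠ a → B a b = 0 → mv a x + mv b x + mv (a + b) x = 0 := by
    intro a b ha hb hba hab
    have hab0 : a + b ≠ 0 := fun e => hba (vec_add_eq_zero hF e).symm
    -- a hyperbolic pair orthogonal to both
    obtain ⟨c, hac, hbc, hc⟩ : ∃ c, B a c = 0 ∧ B b c = 0 ∧ ¬ (c = 0 ∨ c = a ∨ c = b ∨ c = a + b) := by
      by_contra h
      push Not at h
      obtain ⟨za, za1, za2⟩ := exists_pair hF ha hb hba 1 0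
      obtain ⟨zb, zb1, zb2⟩ := exists_pair hF ha hb hba 0 1
      have hsub : ∀ y : V, ∃ i ∈ ({0, a, b, a + b} : Finset V), ∃ s r : F, y = i + s • za + r • zb := by
        intro y
        refine ⟨y + B a y • za + B b y • zb, ?_, B a y, B b y, ?_⟩
        · have := h (y + B a y • za + B b y • zb)
            (by rw [form_add_right, form_add_right, form_smul_right, form_smul_right, za1, zb1, mul_one, mul_zero,
              add_zero, ← two_mul, two_eq_zero hF, zero_mul])
            (by rw [form_add_right, form_add_right, form_smul_right, form_smul_right, za2, zb2, mul_one, mul_zero,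
              add_zero, ← two_mul, two_eq_zero hF, zero_mul])
          simp only [Finset.mem_insert, Finset.mem_singleton]
          exact this
        · have ha2 := add_self_vec hF (B a y • za)
          have hb2 := add_self_vec hF (B b y • zb)
          calc y = y + (B a y • za + B a y • za) + (B b y • zb + B b y • zb) := by rw [ha2, hb2, add_zero, add_zero]
            _ = _ := by abel
      have hcard : Fintype.card V ≤ ((({0, a, b, a + b} : Finset V) ×ˢ (Finset.univ : Finset (F × F))).image
          fun p => p.1 + p.2.1 • za + p.2.2 • zb).card := by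
        rw [← Finset.card_univ]
        refine Finset.card_le_card fun y _ => ?_
        obtain ⟨i, hi, s, r, rfl⟩ := hsub y
        exact Finset.mem_image.mpr ⟨(i, s, r), Finset.mem_product.mpr ⟨hi, Finset.mem_univ _⟩, rfl⟩
      have h16 := hcard.trans Finset.card_image_le
      rw [Fintype.card_fun, Fintype.card_sum, Fintype.card_fin, hF, Finset.card_product, Finset.card_univ,
        Fintype.card_prod, hF] at h16
      have h4 : ({0, a, b, a + b} : Finset V).card ≤ 4 := Finset.card_le_four
      have h64 : 2 ^ 6 ≤ 2 ^ (m + m) := Nat.pow_le_pow_right (by norm_num) (by omega)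
      omega
    push Not at hc
    obtain ⟨d, had, hbd, hcd⟩ := exists_triple hF ha hb hba hc.1 hc.2.1 hc.2.2.1 hc.2.2.2 (0 : F) 0 1
    have rel : ∀ u : V, u ≠ 0 → B u c = 0 → B u d = 0 →
        qf u x (c + d) + qf u x c + qf u x d = mv u x := by
      intro u hu h1 h2
      rw [qf_add hF (hR u hu) h1 h2, hcd, toZ_one, mul_one]
      linear_combination CharTwo.add_self_eq_zero (qf u x c) + CharTwo.add_self_eq_zero (qf u x d)
    have col : ∀ u : V, u ≠ 0 → B a u = 0 → B b u = 0 → qf a x u + qf b x u + qf (a + b) x u = 0 := by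
      intro u hu h1 h2
      have h3 : B (a + b) u = 0 := by rw [form_add_left, h1, h2, add_zero]
      have hsw : ∀ p : V, B p u = 0 → qf p x u = qf u x p := fun p hp => by
        simp only [qf, rT_symm hF hp]
      rw [hsw a h1, hsw b h2, hsw (a + b) h3, qf_add hF (hR u hu) (form_eq_zero_comm.mp h1) (form_eq_zero_comm.mp h2),
        hab, toZ_zero, mul_zero, add_zero]
      linear_combination CharTwo.add_self_eq_zero (qf u x a) + CharTwo.add_self_eq_zero (qf u x b)
    have hd0 : d ≠ 0 := fun e => by rw [e, form_zero_right] at hcd; exact zero_ne_one hcd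
    have hcd0 : c + d ≠ 0 := fun e => by
      rw [← vec_add_eq_zero hF e, form_self] at hcd; exact zero_ne_one hcd
    rw [← rel a ha hac had, ← rel b hb hbc hbd, ← rel (a + b) hab0 (by rw [form_add_left, hac, hbc, add_zero])
      (by rw [form_add_left, had, hbd, add_zero])]
    linear_combination col c hc.1 hac hbc + col d hd0 had hbd +
      col (c + d) hcd0 (by rw [form_add_right, hac, had, add_zero]) (by rw [form_add_right, hbc, hbd, add_zero])
  have hzero : ∀ a b : V, a ≠ 0 → b ≠ 0 → b ≠ a → B a b = 0 →
      tT a • x = x ∨ tT b • x = x ∨ tT (a + b) • x = x := by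
    intro a b ha hb hba hab
    simp only [← mv_eq_zero]
    have h := hsum a b ha hb hba hab
    revert h; generalize mv a x = p; generalize mv b x = r; generalize mv (a + b) x = s
    revert p r s; decide
  -- fixing transvections have orthogonal centres
  have hperp : ∀ a u : V, B a u = 1 → tT a • x = x → tT u • x = x → False := by
    intro a u hau hta htu
    have ha0 : a ≠ 0 := fun e => by rw [e, form_zero_left] at hau; exact zero_ne_one hau
    have hR0 : ∀ w, B a w = 0 → rT a w • x = x := fun w hw => by
      rcases hR a ha0 w hw with h | h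
      · exact h
      · rw [h, hta]
    have hconj : ∀ g : G, g • x = x → ∀ p : V, tT p • x = x → tT ((g : Mat) *ᵥ p) • x = x := by
      intro g hg p hp
      rw [← conj_tT, mul_smul, mul_smul]
      conv_lhs => rw [← hg, inv_smul_smul, hp, hg]
    have hall' : ∀ u' : V, B a u' = 1 → tT u' • x = x := by
      intro u' hu'
      have hw : B a (u' + u) = 0 := by rw [form_add_right, hu', hau, ← two_mul, two_eq_zero hF, zero_mul]
      have hua : B u a = 1 := by rw [form_comm' hF, hau]
      have hstep : ∀ w, B a w = 0 → B u w = 0 → tT (u + w) • x = x := fun w h1 h2 => by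
        have := hconj _ (hR0 w h1) u htu
        rwa [rT_mulVec hF h1, hua, h2, one_smul, zero_smul, add_zero] at this
      rcases zero_or_one hF (B u (u' + u)) with h | h
      · have := hstep _ hw h
        rwa [add_comm u', ← add_assoc, add_self_vec hF, zero_add] at this
      · have := hstep (u' + u + a) (by rw [form_add_right, hw, form_self, add_zero])
          (by rw [form_add_right, h, hua, ← two_mul, two_eq_zero hF, zero_mul])
        have h2 := hconj _ hta _ this
        have e : u + (u' + u + a) = u' + a := by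
          rw [add_comm u', add_assoc u u' a, ← add_assoc u u (u' + a), add_self_vec hF, zero_add]
        rw [e, tT_mulVec hF, form_add_left, form_self, form_comm' hF u', hu', add_zero, one_smul, add_assoc,
          add_self_vec hF, add_zero] at h2
        exact h2
    apply hv1
    by_cases h10 : v1 = 0
    · rw [h10, tT_zero hF, one_smul]
    rcases zero_or_one hF (B a v1) with h | h
    · by_cases h1a : v1 = a
      · rw [h1a, hta]
      obtain ⟨u', h1, h2⟩ := exists_pair hF ha0 h10 h1a 1 1
      have h3 : B a (u' + v1) = 1 := by rw [form_add_right, h1, h, add_zero]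
      have h4 := hconj _ (hall' u' h1) _ (hall' _ h3)
      rwa [tT_mulVec hF, form_add_left, form_self, h2, zero_add, one_smul, add_comm u', add_assoc,
        add_self_vec hF, add_zero] at h4
    · exact hall' v1 h
  -- three pairwise orthogonal centres cannot meet every isotropic line
  obtain ⟨i0, i1, hi⟩ : ∃ i0 i1 : Fin m, i0 ≠ i1 :=
    ⟨⟨0, by omega⟩, ⟨1, by omega⟩, fun e => by simpa using congrArg Fin.val e⟩
  obtain ⟨z, hz0, hz⟩ : ∃ z : V, z ≠ 0 ∧ tT z • x = x := by
    have he : (stdE i0 : V) ≠ 0 := fun e => by simpa [stdE] using congrFun e (Sum.inr i0)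
    have he1 : (stdE i1 : V) ≠ 0 := fun e => by simpa [stdE] using congrFun e (Sum.inr i1)
    have hne : (stdE i1 : V) ≠ stdE i0 := fun e => by simpa [stdE, hi, hi.symm] using congrFun e (Sum.inr i0)
    rcases hzero _ _ he he1 hne (form_stdE_stdE i0 i1) with h | h | h
    · exact ⟨_, he, h⟩
    · exact ⟨_, he1, h⟩
    · exact ⟨_, fun e => hne (vec_add_eq_zero hF e).symm, h⟩
  obtain ⟨u, hu⟩ := exists_form_eq_one hz0
  have hu0 : u ≠ 0 := fun e => by rw [e, form_zero_right] at hu; exact zero_ne_one hu
  have huz : u ≠ z := fun e => by rw [e, form_self] at hu; exact zero_ne_one hu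
  have hzu0 : z + u ≠ 0 := fun e => huz (vec_add_eq_zero hF e).symm
  have honly : ∀ e : V, e ≠ 0 → B z e = 0 → B u e = 0 → tT e • x = x := by
    intro e he hze hue
    have heu : e ≠ u := fun h => by rw [h, hu] at hze; exact one_ne_zero hze
    rcases hzero u e hu0 he heu hue with h | h | h
    · exact (hperp z u hu hz h).elim
    · exact h
    · exact (hperp z (u + e) (by rw [form_add_right, hu, hze, add_zero]) hz h).elim
  obtain ⟨c, hcz, hcu, hc0⟩ : ∃ c : V, B z c = 0 ∧ B u c = 0 ∧ c ≠ 0 := by
    by_contra h
    push Not at h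
    have hy : ∀ y : V, y = B z y • u + B u y • z := fun y => by
      refine vec_add_eq_zero hF (h _ ?_ ?_)
      · simp only [form_add_right, form_smul_right, form_self, hu, mul_one, mul_zero, add_zero]
        rw [← two_mul, two_eq_zero hF, zero_mul]
      · simp only [form_add_right, form_smul_right, form_self, form_comm' hF u z, hu, mul_one, mul_zero, zero_add]
        rw [← two_mul, two_eq_zero hF, zero_mul]
    have h4 : Fintype.card V ≤ Fintype.card (F × F) := Fintype.card_le_of_surjective
      (fun p => p.1 • u + p.2 • z) fun y => ⟨(B z y, B u y), (hy y).symm⟩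
    rw [Fintype.card_fun, Fintype.card_sum, Fintype.card_fin, Fintype.card_prod, hF] at h4
    have h64 : 2 ^ 6 ≤ 2 ^ (m + m) := Nat.pow_le_pow_right (by norm_num) (by omega)
    omega
  have hcz' : c ≠ z := fun e => by rw [e, form_comm' hF, hu] at hcu; exact one_ne_zero hcu
  obtain ⟨d, hdz, hdu, hcd⟩ := exists_triple hF hz0 hu0 huz hc0 hcz'
    (fun e => by rw [e, hu] at hcz; exact one_ne_zero hcz)
    (fun e => by rw [e, form_add_right, hu, form_self, zero_add] at hcz; exact one_ne_zero hcz) (0 : F) 0 1
  exact hperp c d hcd (honly c hc0 hcz hcu)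
    (honly d (fun e => by rw [e, form_zero_right] at hcd; exact zero_ne_one hcd) hdz hdu)

theorem index_le_of_ne_top (hm : 3 ≤ m) (H : Subgroup G) (hH : H ≠ ⊤) :
    2 ^ (m - 1) * (2 ^ m - 1) ≤ H.index := by
  by_contra h
  have hs : Subsingleton (G ⧸ H) := card_le_one_of_small hF hm (X := G ⧸ H) (not_le.mp h)
  exact hH (Subgroup.index_eq_one.mp (Nat.card_of_subsingleton ((1 : G) : G ⧸ H)))

end Action

section Exists

variable (hF : Fintype.card F = 2)
include hF

theorem exists_index_eq (hm : 1 ≤ m) : ∃ H : Subgroup G, H.index = 2 ^ (m - 1) * (2 ^ m - 1) := by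
  classical
  let q0 : V → ZMod 2 := fun x => toZ (∑ i, x (Sum.inl i) * x (Sum.inr i))
  have hq0 : ∀ x y, q0 (x + y) = q0 x + q0 y + toZ (B x y) := by
    intro x y
    simp only [q0]
    rw [← toZ_add hF, ← toZ_add hF, form_apply, ← Finset.sum_add_distrib, ← Finset.sum_add_distrib]
    refine congrArg toZ (Finset.sum_congr rfl fun i _ => ?_)
    simp only [Pi.add_apply]
    linear_combination (x (Sum.inl i) * y (Sum.inr i)) * two_eq_zero hF
  have hzero : ∀ (q : V → ZMod 2), (∀ x y, q (x + y) = q x + q y + toZ (B x y)) → q 0 = 0 := fun q hq => by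
    have := hq 0 0; simp [form_self, toZ_zero] at this; exact this
  have hrep : ∀ f : V → ZMod 2, (∀ x y, f (x + y) = f x + f y) → ∃ a, ∀ x, f x = toZ (B x a) := by
    intro f hf
    let r : ZMod 2 → F := fun e => if e = 0 then 0 else 1
    have hr : ∀ e, toZ (r e) = e := fun e => by
      rcases (by revert e; decide : e = 0 ∨ e = 1) with rfl | rfl <;> simp [r, toZ_zero, toZ_one]
    let a : V := ∑ i, r (f (Pi.single (Sum.inr i) 1)) • Pi.single (Sum.inl i) 1 +
      ∑ i, r (f (Pi.single (Sum.inl i) 1)) • Pi.single (Sum.inr i) 1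
    let φ : V →+ ZMod 2 := AddMonoidHom.mk' f hf
    let ψ : V →+ ZMod 2 := AddMonoidHom.mk' (fun x => toZ (B x a)) fun x y => by rw [form_add_left, toZ_add hF]
    have hsing : ∀ j, φ (Pi.single j 1) = ψ (Pi.single j 1) := by
      intro j
      simp only [φ, ψ, AddMonoidHom.mk'_apply, a]
      rw [form_comm' hF]
      cases j with
      | inl i =>
        rw [form_single_inl]
        simp [Finset.sum_apply, Pi.single_apply, hr]
      | inr i =>
        rw [form_single_inr]
        simp [Finset.sum_apply, Pi.single_apply, hr, CharTwo.neg_eq]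
        rcases zero_or_one hF (r (f (Pi.single (Sum.inr i) 1))) with h | h
        · rw [h, neg_zero, ← h, hr]
        · rw [h, neg_eq_of_add_eq_zero_left (show (1 : F) + 1 = 0 by rw [one_add_one_eq_two, two_eq_zero hF]),
            ← hr (f _), h]
    refine ⟨a, fun x => ?_⟩
    have hx : x = ∑ j, Pi.single j (x j) := (Finset.univ_sum_single x).symm
    show φ x = ψ x
    rw [hx, map_sum, map_sum]
    refine Finset.sum_congr rfl fun j _ => ?_
    rcases zero_or_one hF (x j) with h | h <;> rw [h]
    · simp
    · exact hsing j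
  have hcardV : Fintype.card V = 2 ^ (2 * m) := by
    rw [Fintype.card_fun, Fintype.card_sum, Fintype.card_fin, hF, ← two_mul]
  let zc : (V → ZMod 2) → ℕ := fun q => (Finset.univ.filter fun x => q x = 0).card
  have e6 : 2 ^ m = 2 * 2 ^ (m - 1) := by rw [← pow_succ']; congr 1; omega
  have e : 2 ^ (2 * m) = 2 * (2 ^ (m - 1) * 2 ^ m) := by
    rw [← pow_add, ← pow_succ']; congr 1; omega
  have e5 : 2 ^ (m - 1) * (2 ^ m - 1) + 2 ^ (m - 1) = 2 ^ (m - 1) * 2 ^ m := by
    rw [← Nat.mul_succ]; congr 1; have := Nat.one_le_two_pow (n := m); omega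
  have hzc : ∀ q : V → ZMod 2, (∀ x y, q (x + y) = q x + q y + toZ (B x y)) →
      2 * zc q = 2 ^ (2 * m) + 2 ^ m ∨ 2 * zc q + 2 ^ m = 2 ^ (2 * m) := by
    intro q hq
    have h := card_zeros_bound q (fun x y => toZ (B x y)) hq (fun x => by rw [form_self, toZ_zero])
      (fun u x y => by rw [form_add_left, toZ_add hF]) {0}
      (fun u => ⟨fun h x => by rw [Finset.mem_singleton.mp h, form_zero_right, toZ_zero], fun h =>
        Finset.mem_singleton.mpr (eq_zero_of_form_eq_zero fun x =>
          form_eq_zero_comm.mp (toZ_eq_zero.mp (h x)))⟩)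
      (fun u hu => by rw [Finset.mem_singleton.mp hu]; exact hzero q hq) (2 ^ m)
      (by rw [hcardV, Finset.card_singleton, mul_one, ← pow_mul, mul_comm])
    rw [hcardV] at h
    exact h
  -- shifting by a linear functional
  let sh : (V → ZMod 2) → V → V → ZMod 2 := fun q a x => q x + toZ (B x a)
  have hsh : ∀ q a, (∀ x y, q (x + y) = q x + q y + toZ (B x y)) →
      ∀ x y, sh q a (x + y) = sh q a x + sh q a y + toZ (B x y) := fun q a hq x y => by
    simp only [sh, hq, form_add_left, toZ_add hF]; ring
  have hshift : ∀ q a, (∀ x y, q (x + y) = q x + q y + toZ (B x y)) →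
      (q a = 0 → zc (sh q a) = zc q) ∧ (q a = 1 → zc (sh q a) + zc q = 2 ^ (2 * m)) := by
    intro q a hq
    have hx : ∀ x, sh q a x = q (x + a) + q a := fun x => by
      simp only [sh, hq]; linear_combination -CharTwo.add_self_eq_zero (q a)
    have hc := Finset.card_filter_add_card_filter_not (s := (Finset.univ : Finset V)) fun x => q x = 0
    rw [Finset.card_univ, hcardV] at hc
    refine ⟨fun h => ?_, fun h => ?_⟩
    · exact Finset.card_equiv (Equiv.addRight a) fun x => by simp [hx, h]
    · have : zc (sh q a) = (Finset.univ.filter fun x => ¬ q x = 0).card :=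
        Finset.card_equiv (Equiv.addRight a) fun x => by
          simp only [Finset.mem_filter, Finset.mem_univ, true_and, hx, h, Equiv.coe_addRight]
          generalize q (x + a) = e
          revert e; decide
      simp only [zc] at this ⊢
      omega
  obtain ⟨q, hq, hqz⟩ : ∃ q : V → ZMod 2, (∀ x y, q (x + y) = q x + q y + toZ (B x y)) ∧
      2 * zc q + 2 ^ m = 2 ^ (2 * m) := by
    rcases hzc q0 hq0 with h | h
    · obtain ⟨a, ha⟩ : ∃ a, q0 a = 1 := ⟨Pi.single (Sum.inl ⟨0, hm⟩) 1 + Pi.single (Sum.inr ⟨0, hm⟩) 1, by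
        simp [q0, Pi.single_apply, toZ_one]⟩
      refine ⟨sh q0 a, hsh q0 a hq0, ?_⟩
      have := (hshift q0 a hq0).2 ha
      omega
    · exact ⟨q0, hq0, h⟩
  letI : MulAction G (V → ZMod 2) :=
    { smul := fun g f x => f (((g⁻¹ : G) : Mat) *ᵥ x)
      one_smul := fun f => funext fun x => by
        change f (((1⁻¹ : G) : Mat) *ᵥ x) = f x
        rw [inv_one, Submonoid.coe_one, Matrix.one_mulVec]
      mul_smul := fun g h f => funext fun x => by
        change f ((((g * h)⁻¹ : G) : Mat) *ᵥ x) = f (((h⁻¹ : G) : Mat) *ᵥ (((g⁻¹ : G) : Mat) *ᵥ x))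
        rw [_root_.mul_inv_rev, CfsgLib.Classical.Symp.mul_mulVec] }
  refine ⟨MulAction.stabilizer G q, ?_⟩
  rw [MulAction.index_stabilizer]
  have horb : MulAction.orbit G q = (sh q) '' {a | q a = 0} := by
    ext f
    constructor
    · rintro ⟨g, rfl⟩
      have hf : ∀ x y, (g • q) (x + y) = (g • q) x + (g • q) y + toZ (B x y) := fun x y => by
        change q (_ *ᵥ (x + y)) = q _ + q _ + _
        rw [Matrix.mulVec_add, hq, form_mulVec]
      obtain ⟨a, ha⟩ := hrep (fun x => (g • q) x + q x) fun x y => by
        rw [hf, hq]; linear_combination CharTwo.add_self_eq_zero (toZ (B x y))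
      have hga : g • q = sh q a := funext fun x => by
        simp only [sh, ← ha x]; linear_combination -CharTwo.add_self_eq_zero (q x)
      refine ⟨a, ?_, hga.symm⟩
      rcases (show q a = 0 ∨ q a = 1 by generalize q a = e; revert e; decide) with h | h
      · exact h
      have h1 := (hshift q a hq).2 h
      have h2 : zc (g • q) = zc q := Finset.card_equiv
        (Equiv.ofBijective _ (Finite.injective_iff_bijective.mp (mulVec_injective g⁻¹)))
        fun x => by
          simp only [Finset.mem_filter, Finset.mem_univ, true_and]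
          exact Iff.rfl
      rw [← hga, h2] at h1
      exfalso
      have := Nat.one_le_two_pow (n := m)
      omega
    · rintro ⟨a, ha, rfl⟩
      refine ⟨tT a, funext fun x => ?_⟩
      change q ((((tT a : G)⁻¹ : G) : Mat) *ᵥ x) = _
      rw [inv_eq_of_mul_eq_one_right (tT_mul_self hF a), tT_mulVec hF]
      simp only [sh]
      rcases zero_or_one hF (B x a) with h | h <;> rw [h]
      · simp [toZ_zero]
      · rw [one_smul, hq, show q a = 0 from ha, h, toZ_one, add_zero]
  rw [horb, Set.ncard_image_of_injective _ (fun a b h => ?_)]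
  · rw [Set.ncard_eq_toFinset_card']
    have : ({a | q a = 0} : Set V).toFinset.card = zc q := by simp [zc, Set.toFinset_ofPred]
    omega
  · refine vec_add_eq_zero hF (eq_zero_of_form_eq_zero fun x => form_eq_zero_comm.mp ?_)
    have h' := toZ_inj hF (add_left_cancel (congrFun h x))
    rw [form_add_right, h', ← two_mul, two_eq_zero hF, zero_mul]

end Exists

end CfsgLib.MinIndexSp
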