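import Cfsg.Agent.MinIndexSp.TwoBasic

/-!
An action of `Sp_2m(2)` on fewer than `2^(m-1) (2^m - 1)` points without trivial transvections: the
unipotent radical of the stabiliser of a vector moves every point at most to its image under the transvection.
-/

set_option autoImplicit false
set_option linter.unusedSectionVars false

namespace CfsgLib.MinIndexSp

open Matrix CfsgLib.Classical.Symp

variable {m : ℕ} {F : Type*} [Field F] [Fintype F]

local notation "B" => Cfsg.sympForm m F
local notation "Mat" => Matrix (Fin m ⊕ Fin m) (Fin m ⊕ Fin m) F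
local notation "V" => (Fin m ⊕ Fin m → F)
local notation "G" => Matrix.symplecticGroup (Fin m) F

variable {X : Type*} [MulAction (Matrix.symplecticGroup (Fin m) F) X] (hF : Fintype.card F = 2)

theorem tT_smul_smul (hF : Fintype.card F = 2) (v : V) (y : X) : tT v • tT v • y = y := by
  rw [smul_smul, tT_mul_self hF, one_smul]

theorem tT_rT_smul (hF : Fintype.card F = 2) {v w : V} (h : B v w = 0) (y : X) :
    tT v • rT v w • y = rT v w • tT v • y := by
  rw [smul_smul, smul_smul, tT_rT_commute hF h]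

theorem spT_smul_cases (hF : Fintype.card F = 2) (v : V) (c : F) (y : X) :
    spT v c • y = y ∨ spT v c • y = tT v • y := by
  rcases zero_or_one hF c with rfl | rfl
  · left; rw [spT_zero, one_smul]
  · right; rfl

/-- Vectors `w ⊥ v` whose element moves `x` inside `{x, t x}`. -/
noncomputable def kSet (hF : Fintype.card F = 2) (v : V) (x : X) : Submodule F V where
  carrier := {w | B v w = 0 ∧ (rT v w • x = x ∨ rT v w • x = tT v • x)}
  zero_mem' := ⟨form_zero_right v, Or.inl (by rw [rT_zero hF, one_smul])⟩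
  add_mem' := by
    rintro a b ⟨ha, ha'⟩ ⟨hb, hb'⟩
    have hab : B v (a + b) = 0 := by rw [form_add_right, ha, hb, add_zero]
    refine ⟨hab, ?_⟩
    have e : rT v (a + b) • x = rT v a • rT v b • spT v (B a b) • x := by
      rw [smul_smul, smul_smul, rT_mul hF ha hb, mul_assoc (rT v (a + b)), ← spT_add, ← two_mul,
        two_eq_zero hF, zero_mul, spT_zero, mul_one]
    rw [e]
    rcases spT_smul_cases hF v (B a b) x with h | h <;> rw [h]
    · rcases hb' with h1 | h1 <;> rw [h1]
      · exact ha'
      · rw [← tT_rT_smul hF ha]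
        rcases ha' with h2 | h2 <;> rw [h2] <;> simp [tT_smul_smul hF]
    · rw [← tT_rT_smul hF hb]
      rcases hb' with h1 | h1 <;> rw [h1]
      · rw [← tT_rT_smul hF ha]
        rcases ha' with h2 | h2 <;> rw [h2] <;> simp [tT_smul_smul hF]
      · rw [tT_smul_smul hF]; exact ha'
  smul_mem' := by
    rintro c a ha
    rcases zero_or_one hF c with rfl | rfl
    · rw [zero_smul]; exact ⟨form_zero_right v, Or.inl (by rw [rT_zero hF, one_smul])⟩
    · rwa [one_smul]

theorem mem_kSet {v w : V} {x : X} :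
    w ∈ kSet hF v x ↔ B v w = 0 ∧ (rT v w • x = x ∨ rT v w • x = tT v • x) := Iff.rfl

/-- The orthogonal of `kSet`. -/
noncomputable def aSet (hF : Fintype.card F = 2) (v : V) (x : X) : Submodule F V :=
  (bform m F).orthogonal (kSet hF v x)

theorem self_mem_kSet (v : V) (x : X) : v ∈ kSet hF v x :=
  ⟨form_self v, Or.inl (by rw [rT_self hF, one_smul])⟩

theorem mem_aSet {v a : V} {x : X} : a ∈ aSet hF v x ↔ ∀ u ∈ kSet hF v x, B u a = 0 := Iff.rfl

theorem form_of_mem_aSet {v a : V} {x : X} (h : a ∈ aSet hF v x) : B v a = 0 :=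
  (mem_aSet hF).mp h v (self_mem_kSet hF v x)

theorem self_mem_aSet (v : V) (x : X) : v ∈ aSet hF v x :=
  (mem_aSet hF).mpr fun _ hu => form_eq_zero_comm.mp hu.1

theorem mem_kSet_smul {v : V} (g : G) (hg : (g : Mat) *ᵥ v = v) (w : V) (x : X) :
    (g : Mat) *ᵥ w ∈ kSet hF v (g • x) ↔ w ∈ kSet hF v x := by
  have e1 : rT v ((g : Mat) *ᵥ w) = g * rT v w * g⁻¹ := by rw [conj_rT, hg]
  have e2 : tT v = g * tT v * g⁻¹ := by rw [conj_tT, hg]
  have e3 : B v ((g : Mat) *ᵥ w) = B v w := by rw [← form_mulVec g v w, hg]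
  rw [mem_kSet, mem_kSet, e3, e1]
  conv_lhs => rw [e2]
  simp only [smul_smul, inv_mul_cancel_right]
  simp only [← smul_smul, smul_left_cancel_iff]

theorem mem_aSet_smul {v : V} (g : G) (hg : (g : Mat) *ᵥ v = v) (a : V) (x : X) :
    (g : Mat) *ᵥ a ∈ aSet hF v (g • x) ↔ a ∈ aSet hF v x := by
  rw [mem_aSet, mem_aSet]
  refine ⟨fun h u hu => ?_, fun h u hu => ?_⟩
  · rw [← form_mulVec g u a]
    exact h _ ((mem_kSet_smul hF g hg u x).mpr hu)
  · rw [← mulVec_inv_cancel g u, form_mulVec]
    refine h _ ((mem_kSet_smul hF g hg _ x).mp ?_)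
    rwa [mulVec_inv_cancel]

theorem card_kSet_smul {v : V} (g : G) (hg : (g : Mat) *ᵥ v = v) (x : X) :
    Nat.card (kSet hF v (g • x)) = Nat.card (kSet hF v x) :=
  (Nat.card_eq_of_bijective (fun w : kSet hF v x => ⟨(g : Mat) *ᵥ w.1, (mem_kSet_smul hF g hg w.1 x).mpr w.2⟩)
    ⟨fun a b h => Subtype.ext (mulVec_injective g (congrArg Subtype.val h)), fun w =>
      ⟨⟨((g⁻¹ : G) : Mat) *ᵥ w.1, (mem_kSet_smul hF g hg _ x).mp (by rw [mulVec_inv_cancel]; exact w.2)⟩,
        Subtype.ext (mulVec_inv_cancel g w.1)⟩⟩).symm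

theorem rT_fix {v w : V} (hF : Fintype.card F = 2) (h : B v w = 0) : (rT v w : Mat) *ᵥ v = v := by
  rw [rT_mulVec hF h, form_self, h, zero_smul, zero_smul, add_zero, add_zero]

theorem kSet_rT_smul {v w : V} (hw : B v w = 0) (x : X) : kSet hF v (rT v w • x) = kSet hF v x := by
  ext u
  have key : ∀ u, B v u = 0 → ((rT v w : Mat) *ᵥ u = u ∨ (rT v w : Mat) *ᵥ u = u + v) := by
    intro u hu
    rw [rT_mulVec hF hw, form_eq_zero_comm.mp hu, zero_smul, add_zero]
    rcases zero_or_one hF (B u w) with h | h <;> simp [h]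
  constructor
  · intro hu
    have hu' : B v u = 0 := hu.1
    rcases key u hu' with h | h
    · exact (mem_kSet_smul hF _ (rT_fix hF hw) u x).mp (h.symm ▸ hu)
    · exact (mem_kSet_smul hF _ (rT_fix hF hw) u x).mp
        (h.symm ▸ Submodule.add_mem _ hu (self_mem_kSet hF _ _))
  · intro hu
    have h1 := (mem_kSet_smul hF _ (rT_fix hF hw) u x).mpr hu
    rcases key u hu.1 with h | h
    · rwa [h] at h1
    · rw [h] at h1
      simpa using Submodule.sub_mem _ h1 (self_mem_kSet hF v (rT v w • x))

theorem kSet_tT_smul (v : V) (x : X) : kSet hF v (tT v • x) = kSet hF v x := by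
  ext u
  constructor <;> rintro ⟨hu, h⟩ <;> refine ⟨hu, ?_⟩
  · have : ∀ y : X, tT v • y = tT v • rT v u • x → y = rT v u • x := fun y h => smul_left_cancel _ h
    rw [← tT_rT_smul hF hu, tT_smul_smul hF] at h
    rcases h with h | h
    · left; exact smul_left_cancel _ h
    · right; simpa [tT_smul_smul hF] using congrArg (fun z => tT v • z) h
  · rw [← tT_rT_smul hF hu, tT_smul_smul hF]
    rcases h with h | h <;> rw [h] <;> simp [tT_smul_smul hF]

theorem rT_smul_congr {v w w' : V} (hw : B v w = 0) (hw' : B v w' = 0) {x : X}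
    (h : rT v w • x = rT v w' • x ∨ rT v w • x = tT v • rT v w' • x) : w + w' ∈ kSet hF v x := by
  have hs : B v (w + w') = 0 := by rw [form_add_right, hw, hw', add_zero]
  refine ⟨hs, ?_⟩
  have e : rT v (w + w') • x = rT v w' • rT v w • spT v (B w w') • x := by
    rw [smul_smul, smul_smul, ← rT_commute hF hw hw', rT_mul hF hw hw', mul_assoc (rT v (w + w')), ← spT_add,
      ← two_mul, two_eq_zero hF, zero_mul, spT_zero, mul_one]
  have sq : ∀ y : X, rT v w' • rT v w' • y = y := fun y => by
    rw [smul_smul, rT_mul hF hw' hw', add_self_vec hF, rT_zero hF, one_mul, form_self, spT_zero, one_smul]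
  rw [e]
  rcases spT_smul_cases hF v (B w w') x with h1 | h1 <;> rw [h1]
  · rcases h with h2 | h2 <;> rw [h2]
    · left; exact sq x
    · right; rw [← tT_rT_smul hF hw', sq]
  · rw [← tT_rT_smul hF hw, ← tT_rT_smul hF hw']
    rcases h with h2 | h2 <;> rw [h2]
    · right; rw [sq]
    · left; rw [← tT_rT_smul hF hw', tT_smul_smul hF, sq]

/-- Transitivity of the stabiliser of `v` on the vectors orthogonal to `v` outside its line. -/
theorem exists_fix_map {v a a' : V} (hF : Fintype.card F = 2) (hv : v ≠ 0) (ha : B v a = 0) (ha0 : a ≠ 0)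
    (hav : a ≠ v) (ha' : B v a' = 0) (ha0' : a' ≠ 0) (hav' : a' ≠ v) :
    ∃ g : G, (g : Mat) *ᵥ v = v ∧ (g : Mat) *ᵥ a = a' := by
  obtain ⟨z, hvz, haz, haz'⟩ : ∃ z, B v z = 0 ∧ B a z = 1 ∧ B a' z = 1 := by
    by_cases h1 : a' = a
    · obtain ⟨z, e1, e2⟩ := exists_pair hF hv ha0 hav 0 1
      exact ⟨z, e1, e2, h1 ▸ e2⟩
    by_cases h2 : a' = v + a
    · obtain ⟨z, e1, e2⟩ := exists_pair hF hv ha0 hav 0 1
      exact ⟨z, e1, e2, by rw [h2, form_add_left, e1, e2, zero_add]⟩
    exact exists_triple hF hv ha0 hav ha0' hav' h1 h2 0 1 1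
  refine ⟨tT (z + a') * tT (z + a), ?_, ?_⟩
  · rw [mul_mulVec, tT_mulVec hF (z + a) v, form_add_right, hvz, ha, add_zero, zero_smul, add_zero, tT_mulVec hF,
      form_add_right, hvz, ha', add_zero, zero_smul, add_zero]
  · rw [mul_mulVec, tT_mulVec hF _ a, form_add_right, haz, form_self, add_zero, one_smul,
      add_comm z a, ← add_assoc, add_self_vec hF, zero_add, tT_mulVec hF, form_add_right, form_self,
      form_comm' hF z, haz', zero_add, one_smul, ← add_assoc, add_self_vec hF, zero_add]

theorem card_mul_card_aSet (v : V) (x : X) :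
    Nat.card (kSet hF v x) * Nat.card (aSet hF v x) = 2 ^ (2 * m) := by
  have h := LinearMap.BilinForm.finrank_orthogonal (bform_nondeg (m := m) (F := F)) (kSet hF v x)
  have h' := Submodule.finrank_le (kSet hF v x)
  rw [show Nat.card (kSet hF v x) = Nat.card F ^ Module.finrank F (kSet hF v x) from Module.natCard_eq_pow_finrank,
    show Nat.card (aSet hF v x) = Nat.card F ^ Module.finrank F (aSet hF v x) from Module.natCard_eq_pow_finrank,
    Nat.card_eq_fintype_card (α := F), hF, ← pow_add, aSet, h]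
  rw [Module.finrank_fintype_fun_eq_card, Fintype.card_sum, Fintype.card_fin] at h' ⊢
  congr 1
  omega

theorem card_perp {v : V} (hF : Fintype.card F = 2) (hv : v ≠ 0) :
    Nat.card {w : V // B v w = 0} * 2 = 2 ^ (2 * m) := by
  classical
  obtain ⟨z, hz⟩ := exists_form_eq_one hv
  have hz0 : ∀ w : V, B v w ≠ 0 → B v (w + z) = 0 := fun w h => by
    rw [form_add_right, hz, (ne_zero_iff_eq_one hF).mp h, ← two_mul, two_eq_zero hF, zero_mul]
  let e : {w : V // B v w = 0} ≃ {w : V // ¬ B v w = 0} :=
    { toFun := fun w => ⟨w.1 + z, by rw [form_add_right, w.2, hz, zero_add]; exact one_ne_zero⟩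
      invFun := fun w => ⟨w.1 + z, hz0 w.1 w.2⟩
      left_inv := fun w => Subtype.ext (by simp [add_assoc, add_self_vec hF])
      right_inv := fun w => Subtype.ext (by simp [add_assoc, add_self_vec hF]) }
  have h1 : Nat.card V = 2 ^ (2 * m) := by
    rw [Nat.card_eq_fintype_card, Fintype.card_fun, Fintype.card_sum, Fintype.card_fin, hF, ← two_mul]
  have h2 := Fintype.card_subtype_compl fun w : V => B v w = 0
  have h3 := Fintype.card_subtype_le fun w : V => B v w = 0
  rw [← Fintype.card_congr e] at h2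
  rw [Nat.card_eq_fintype_card] at h1 ⊢
  omega

section Count

variable [Finite X]

/-- The points sharing `kSet` with `y` contain the images of `y` under the radical. -/
theorem card_fibre_bound {v : V} (hv : v ≠ 0) (y : X) :
    2 ^ (2 * m) ≤ 2 * Nat.card (kSet hF v y) * Nat.card {z : X // aSet hF v z = aSet hF v y} ∧
      (tT v • y ≠ y →
        2 * 2 ^ (2 * m) ≤ 2 * Nat.card (kSet hF v y) * Nat.card {z : X // aSet hF v z = aSet hF v y}) := by
  classical
  have := Fintype.ofFinite X
  let Pv : Finset V := Finset.univ.filter fun w => B v w = 0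
  let Kf : Finset V := Finset.univ.filter fun w => w ∈ kSet hF v y
  have hP : Pv.card * 2 = 2 ^ (2 * m) := by
    rw [← card_perp hF hv, Nat.card_eq_fintype_card, Fintype.card_subtype]
  have hK : Kf.card = Nat.card (kSet hF v y) := by
    rw [Nat.card_eq_fintype_card, Fintype.card_subtype]
  let T : Finset X := Finset.univ.filter fun z => aSet hF v z = aSet hF v y
  have hT : T.card = Nat.card {z : X // aSet hF v z = aSet hF v y} := by
    rw [Nat.card_eq_fintype_card, Fintype.card_subtype]
  have hin : ∀ w ∈ Pv, rT v w • y ∈ T ∧ tT v • rT v w • y ∈ T := by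
    intro w hw
    simp only [Pv, Finset.mem_filter, Finset.mem_univ, true_and] at hw
    exact ⟨Finset.mem_filter.mpr ⟨Finset.mem_univ _, by rw [aSet, aSet, kSet_rT_smul hF hw y]⟩,
      Finset.mem_filter.mpr ⟨Finset.mem_univ _, by rw [aSet, aSet, kSet_tT_smul hF, kSet_rT_smul hF hw y]⟩⟩
  have fib : ∀ (w0 : V), B v w0 = 0 →
      (Pv.filter fun w => rT v w • y = rT v w0 • y ∨ rT v w • y = tT v • rT v w0 • y).card ≤ Kf.card := by
    intro w0 hw0
    refine Finset.card_le_card_of_injOn (fun w => w + w0) (fun w hw => ?_) (fun a _ b _ h => add_right_cancel h)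
    simp only [Pv, Finset.coe_filter, Finset.mem_filter, Finset.mem_univ, true_and, Set.mem_ofPred_eq] at hw
    simp only [Kf, Finset.coe_filter, Finset.mem_univ, true_and, Set.mem_ofPred_eq]
    exact rT_smul_congr hF hw.1 hw0 hw.2
  rw [← hK, ← hT, ← hP]
  constructor
  · have h := Finset.card_le_mul_card_image (f := fun w => rT v w • y) Pv Kf.card fun z hz => by
      obtain ⟨w0, hw0, rfl⟩ := Finset.mem_image.mp hz
      refine le_trans (Finset.card_le_card ?_) (fib w0 (Finset.mem_filter.mp hw0).2)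
      intro w hw
      rw [Finset.mem_filter] at hw ⊢
      exact ⟨hw.1, Or.inl hw.2⟩
    have h' := Finset.card_le_card (Finset.image_subset_iff.mpr fun w hw => (hin w hw).1 :
      Pv.image (fun w => rT v w • y) ⊆ T)
    calc Pv.card * 2 ≤ Kf.card * T.card * 2 := Nat.mul_le_mul_right 2 (h.trans (Nat.mul_le_mul_left _ h'))
      _ = _ := by ring
  · intro hty
    let f : V × Bool → X := fun p => cond p.2 (tT v • rT v p.1 • y) (rT v p.1 • y)
    have h := Finset.card_le_mul_card_image (f := f) (Pv ×ˢ Finset.univ) Kf.card fun z hz => by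
      obtain ⟨p0, hp0, rfl⟩ := Finset.mem_image.mp hz
      have hw0 : B v p0.1 = 0 := (Finset.mem_filter.mp (Finset.mem_product.mp hp0).1).2
      refine le_trans (Finset.card_le_card_of_injOn Prod.fst ?_ ?_) (fib p0.1 hw0)
      · intro p hp
        rw [Finset.mem_coe, Finset.mem_filter, Finset.mem_product] at hp
        rw [Finset.mem_coe, Finset.mem_filter]
        refine ⟨hp.1.1, ?_⟩
        rcases p with ⟨w, _ | _⟩ <;> rcases p0 with ⟨w0, _ | _⟩ <;> have e := hp.2 <;> simp only [f, cond] at e
        · left; exact e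
        · right; exact e
        · right; rw [← e, tT_smul_smul hF]
        · left; exact smul_left_cancel _ e
      · intro p hp q hq hpq
        rw [Finset.mem_coe, Finset.mem_filter, Finset.mem_product] at hp hq
        have hw : B v p.1 = 0 := (Finset.mem_filter.mp hp.1.1).2
        have e : f p = f q := hp.2.trans hq.2.symm
        rcases p with ⟨w, _ | _⟩ <;> rcases q with ⟨w', _ | _⟩ <;> obtain rfl : w = w' := hpq <;>
          simp only [f, cond] at e <;> first | rfl | skip
        · exact absurd e.symm (by rw [tT_rT_smul hF hw]; exact fun e => hty (smul_left_cancel _ e))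
        · exact absurd e (by rw [tT_rT_smul hF hw]; exact fun e => hty (smul_left_cancel _ e))
    have h' := Finset.card_le_card (Finset.image_subset_iff.mpr fun p hp => by
      rcases p with ⟨w, _ | _⟩
      · exact (hin w (Finset.mem_product.mp hp).1).1
      · exact (hin w (Finset.mem_product.mp hp).1).2 : (Pv ×ˢ Finset.univ).image f ⊆ T)
    rw [Finset.card_product, Finset.card_univ, Fintype.card_bool] at h
    calc 2 * (Pv.card * 2) ≤ 2 * (Kf.card * T.card) := Nat.mul_le_mul_left 2 (h.trans (Nat.mul_le_mul_left _ h'))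
      _ = _ := by ring

/-- The double count: if `y` has `e` (1 or 2) points per class and each vector of `v⊥` outside the line lies in
at least `μ` conjugates of `aSet`, then `e μ < 2`. -/
theorem aSet_dichotomy (hm : 3 ≤ m) (hX : Nat.card X < 2 ^ (m - 1) * (2 ^ m - 1)) {v : V} (hv : v ≠ 0) (x : X)
    {a : V} (ha : a ∈ aSet hF v x) (ha0 : a ≠ 0) (hav : a ≠ v) :
    tT v • x = x ∧ aSet hF v x = (bform m F).orthogonal (Submodule.span F {v}) := by
  classical
  have := Fintype.ofFinite X
  have := Fintype.ofFinite G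
  have hva : B v a = 0 := form_of_mem_aSet hF ha
  let P : Finset G := Finset.univ.filter fun g => (g : Mat) *ᵥ v = v
  let 𝒜 : Finset (Submodule F V) := P.image fun g => aSet hF v (g • x)
  let nK := Nat.card (kSet hF v x)
  let nA := Nat.card (aSet hF v x)
  have hKA : nK * nA = 2 ^ (2 * m) := card_mul_card_aSet hF v x
  have hnK : 0 < nK := Nat.card_pos
  have hL : 0 < 𝒜.card := Finset.card_pos.mpr
    ⟨_, Finset.mem_image_of_mem _ (Finset.mem_filter.mpr ⟨Finset.mem_univ (1 : G), by simp⟩)⟩
  -- the classes are disjoint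
  have hdis : ∀ c : ℕ, (∀ g ∈ P, c * 2 ^ (2 * m) ≤
      2 * Nat.card (kSet hF v (g • x)) * Nat.card {z : X // aSet hF v z = aSet hF v (g • x)}) →
      c * 𝒜.card * nA ≤ 2 * Nat.card X := by
    intro c hc
    have h1 : (Finset.univ : Finset X).card ≥
        ∑ A' ∈ 𝒜, (Finset.univ.filter fun z : X => aSet hF v z = A').card := by
      rw [← Finset.card_biUnion fun A' _ A'' _ hne => Finset.disjoint_left.mpr fun z h h' =>
        hne ((Finset.mem_filter.mp h).2.symm.trans (Finset.mem_filter.mp h').2)]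
      exact Finset.card_le_univ _
    have h2 : ∀ A' ∈ 𝒜, c * 2 ^ (2 * m) ≤
        2 * nK * (Finset.univ.filter fun z : X => aSet hF v z = A').card := by
      intro A' hA'
      obtain ⟨g, hg, rfl⟩ := Finset.mem_image.mp hA'
      have h := hc g hg
      rw [card_kSet_smul hF g (Finset.mem_filter.mp hg).2, Nat.card_eq_fintype_card (α := {z : X // _}),
        Fintype.card_subtype] at h
      exact h
    have h3 : 𝒜.card * (c * 2 ^ (2 * m)) ≤ 2 * nK * Nat.card X := by
      rw [← smul_eq_mul, ← Finset.sum_const, Nat.card_eq_fintype_card, ← Finset.card_univ]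
      exact (Finset.sum_le_sum h2).trans (by rw [← Finset.mul_sum]; exact Nat.mul_le_mul_left _ h1)
    rw [← hKA] at h3
    refine Nat.le_of_mul_le_mul_left ?_ hnK
    linarith
  -- each vector lies in at least `μ` of them
  let Q : Finset V := Finset.univ.filter fun b => B v b = 0 ∧ b ≠ 0 ∧ b ≠ v
  have hQ : (Q.card + 2) * 2 = 2 ^ (2 * m) := by
    rw [← card_perp hF hv, Nat.card_eq_fintype_card, Fintype.card_subtype]
    have e : Q = ((Finset.univ.filter fun b : V => B v b = 0).erase 0).erase v := by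
      ext b; simp [Q]; tauto
    have h1 : (0 : V) ∈ Finset.univ.filter fun b : V => B v b = 0 := by simp [form_zero_right]
    have h2 : v ∈ (Finset.univ.filter fun b : V => B v b = 0).erase 0 := by simp [hv, form_self]
    rw [e, ← Finset.card_erase_add_one h1, ← Finset.card_erase_add_one h2]
  have hcount : ∀ μ : ℕ, (∀ b ∈ Q, μ ≤ (𝒜.filter fun A' => b ∈ A').card) → μ * Q.card + 2 * 𝒜.card ≤ 𝒜.card * nA := by
    intro μ hμ
    have hA2 : ∀ A' ∈ 𝒜, (Q.filter fun b => b ∈ A').card + 2 ≤ nA := by
      intro A' hA'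
      obtain ⟨g, hg, rfl⟩ := Finset.mem_image.mp hA'
      have hgv := (Finset.mem_filter.mp hg).2
      have hn : nA = Nat.card (aSet hF v (g • x)) := by
        have h := card_mul_card_aSet hF v (g • x)
        rw [card_kSet_smul hF g hgv, ← hKA] at h
        exact (Nat.eq_of_mul_eq_mul_left hnK h).symm
      rw [hn, Nat.card_eq_fintype_card, Fintype.card_subtype]
      set S := Finset.univ.filter fun b => b ∈ aSet hF v (g • x)
      have s0 : (0 : V) ∈ S := by simp [S]
      have sv : v ∈ S.erase 0 := by simp [S, hv, self_mem_aSet hF]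
      rw [← Finset.card_erase_add_one s0, ← Finset.card_erase_add_one sv]
      simp only [add_le_add_iff_right]
      exact Finset.card_le_card fun b hb => by simp [Q] at hb; simp [S, hb]
    have h := Finset.card_mul_le_card_mul (fun b (A' : Submodule F V) => b ∈ A') (s := Q) (t := 𝒜)
      (m := μ) (n := nA - 2) (fun b hb => hμ b hb) (fun A' hA' => by
        simp only [Finset.bipartiteBelow]; have := hA2 A' hA'; omega)
    have h2 : 2 ≤ nA := by
      have := hA2 _ (Finset.mem_image_of_mem _ (Finset.mem_filter.mpr ⟨Finset.mem_univ (1 : G), by simp⟩))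
      omega
    obtain ⟨k, hk⟩ := Nat.exists_eq_add_of_le h2
    rw [hk] at h ⊢
    rw [Nat.add_sub_cancel_left] at h
    linarith
  have hbig : ¬ Q.card ≤ Nat.card X := by
    have e : 2 ^ (2 * m) = 2 * (2 ^ (m - 1) * 2 ^ m) := by
      rw [← pow_add, ← pow_succ']; congr 1; omega
    have e4 : 4 ≤ 2 ^ (m - 1) := le_trans (by norm_num) (Nat.pow_le_pow_right (by norm_num) (show 2 ≤ m - 1 by omega))
    have e5 : 2 ^ (m - 1) * (2 ^ m - 1) + 2 ^ (m - 1) = 2 ^ (m - 1) * 2 ^ m := by
      rw [← Nat.mul_succ]; congr 1; have := Nat.one_le_two_pow (n := m); omega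
    omega
  have hone : ∀ b ∈ Q, 1 ≤ (𝒜.filter fun A' => b ∈ A').card := by
    intro b hb
    simp only [Q, Finset.mem_filter, Finset.mem_univ, true_and] at hb
    obtain ⟨g, hgv, hga⟩ := exists_fix_map hF hv hva ha0 hav hb.1 hb.2.1 hb.2.2
    refine Finset.card_pos.mpr ⟨aSet hF v (g • x), Finset.mem_filter.mpr ⟨?_, ?_⟩⟩
    · exact Finset.mem_image_of_mem _ (Finset.mem_filter.mpr ⟨Finset.mem_univ g, hgv⟩)
    · rw [← hga]; exact (mem_aSet_smul hF g hgv a x).mpr ha
  have htx : tT v • x = x := by
    by_contra hne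
    have h := hdis 2 fun g hg => (card_fibre_bound hF hv (g • x)).2 fun h => hne (by
      have hgv := (Finset.mem_filter.mp hg).2
      rw [← hgv, ← conj_tT, mul_smul, mul_smul, inv_smul_smul] at h
      exact smul_left_cancel _ h)
    have := hcount 1 hone
    apply hbig
    linarith
  refine ⟨htx, ?_⟩
  obtain ⟨b, hb, hμ⟩ : ∃ b ∈ Q, (𝒜.filter fun A' => b ∈ A').card ≤ 1 := by
    by_contra hne
    push Not at hne
    have h := hdis 1 fun g _ => by rw [one_mul]; exact (card_fibre_bound hF hv (g • x)).1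
    have := hcount 2 hne
    apply hbig
    linarith
  simp only [Q, Finset.mem_filter, Finset.mem_univ, true_and] at hb
  have key : ∀ a' ∈ aSet hF v x, a' ≠ 0 → a' ≠ v → ∀ c ∈ aSet hF v x, c ≠ 0 → c ≠ v → c ≠ a' → c ≠ v + a' →
      ∀ z, B v z = 0 → B a' z = 0 → z ∈ aSet hF v x := by
    intro a' ha' ha0' hav' c hc hc0 hcv hca hcva
    obtain ⟨g, hgv, hga⟩ := exists_fix_map hF hv (form_of_mem_aSet hF ha') ha0' hav' hb.1 hb.2.1 hb.2.2
    have step : ∀ z, B v z = 0 → B a' z = 0 → B c z = 1 → z ∈ aSet hF v x := by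
      intro z h1 h2 h3
      have hfix : ∀ u, B u z = 0 → (tT z : Mat) *ᵥ u = u := fun u hu => by
        rw [tT_mulVec hF, hu, zero_smul, add_zero]
      have hghv : ((g * tT z : G) : Mat) *ᵥ v = v := by rw [mul_mulVec, hfix v h1, hgv]
      have m1 : aSet hF v (g • x) ∈ 𝒜.filter fun A' => b ∈ A' := Finset.mem_filter.mpr
        ⟨Finset.mem_image_of_mem _ (Finset.mem_filter.mpr ⟨Finset.mem_univ g, hgv⟩),
          hga ▸ (mem_aSet_smul hF g hgv a' x).mpr ha'⟩
      have m2 : aSet hF v ((g * tT z) • x) ∈ 𝒜.filter fun A' => b ∈ A' := Finset.mem_filter.mpr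
        ⟨Finset.mem_image_of_mem _ (Finset.mem_filter.mpr ⟨Finset.mem_univ _, hghv⟩),
          (by rw [mul_mulVec, hfix a' h2, hga] : ((g * tT z : G) : Mat) *ᵥ a' = b) ▸
            (mem_aSet_smul hF _ hghv a' x).mpr ha'⟩
      have heq := Finset.card_le_one.mp hμ _ m1 _ m2
      have hc2 := (mem_aSet_smul hF _ hghv c x).mpr hc
      rw [← heq, mul_mulVec, mem_aSet_smul hF g hgv, tT_mulVec hF, h3, one_smul] at hc2
      simpa using Submodule.sub_mem _ hc2 hc
    obtain ⟨z0, e1, e2, e3⟩ := exists_triple hF hv ha0' hav' hc0 hcv hca hcva (0 : F) 0 1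
    intro z h1 h2
    rcases zero_or_one hF (B c z) with h3 | h3
    · have := Submodule.sub_mem _ (step (z + z0) (by rw [form_add_right, h1, e1, add_zero])
        (by rw [form_add_right, h2, e2, add_zero]) (by rw [form_add_right, h3, e3, zero_add])) (step z0 e1 e2 e3)
      simpa using this
    · exact step z h1 h2 h3
  refine le_antisymm (fun w hw => ?_) fun w hw => ?_
  · rw [LinearMap.BilinForm.mem_orthogonal_iff]
    intro u hu
    rcases (mem_span_singleton_two hF).mp hu with rfl | rfl
    · exact form_zero_left w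
    · exact form_of_mem_aSet hF hw
  · have hvw : B v w = 0 := LinearMap.BilinForm.mem_orthogonal_iff.mp hw v (Submodule.mem_span_singleton_self v)
    by_cases hex : ∃ c ∈ aSet hF v x, c ≠ 0 ∧ c ≠ v ∧ c ≠ a ∧ c ≠ v + a
    · obtain ⟨c, hc, hc0, hcv, hca, hcva⟩ := hex
      have hac0 : a ≠ v + c := fun e => hcva (by rw [e, ← add_assoc, add_self_vec hF, zero_add])
      obtain ⟨y, y1, y2, y3⟩ := exists_triple hF hv hc0 hcv ha0 hav hca.symm hac0 (0 : F) 0 1
      have hy := key c hc hc0 hcv a ha ha0 hav hca.symm hac0 y y1 y2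
      rcases zero_or_one hF (B a w) with h | h
      · exact key a ha ha0 hav c hc hc0 hcv hca hcva w hvw h
      · have := key a ha ha0 hav c hc hc0 hcv hca hcva (w + y) (by rw [form_add_right, hvw, y1, add_zero])
          (by rw [form_add_right, h, y3, ← two_mul, two_eq_zero hF, zero_mul])
        simpa using Submodule.sub_mem _ this hy
    · -- `aSet` has only four elements
      exfalso
      push Not at hex
      have hsmall : nA ≤ 4 := by
        rw [show nA = Nat.card (aSet hF v x) from rfl, Nat.card_eq_fintype_card, Fintype.card_subtype]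
        refine le_trans (Finset.card_le_card (t := {0, v, a, v + a}) fun c hc => ?_) Finset.card_le_four
        simp only [Finset.mem_insert, Finset.mem_singleton]
        by_contra hne
        push Not at hne
        exact hne.2.2.2 (hex c (Finset.mem_filter.mp hc).2 hne.1 hne.2.1 hne.2.2.1)
      have h1 := hcount 1 hone
      have h := hdis 1 fun g _ => by rw [one_mul]; exact (card_fibre_bound hF hv (g • x)).1
      apply hbig
      have : 𝒜.card * nA ≤ 𝒜.card * 4 := Nat.mul_le_mul_left _ hsmall
      linarith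

end Count

end CfsgLib.MinIndexSp
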